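import Cfsg.Agent.H42.StableBlock

/-!
# Block idempotents and normal `p`-subgroups
-/

set_option autoImplicit false

open scoped ComplexConjugate

namespace Cfsg.Agent.H42

open H43 (irrConj restrMult)

universe u

variable {G : Type u} [Group G] [Fintype G]

/-- Two characters with a common constituent on a normal subgroup have proportional restrictions. -/
theorem restrMult_mul_apply {N : Subgroup G} [N.Normal] [Fintype N] {χ ξ : Cfsg.IrrCharacter G}
    {θ : Cfsg.IrrCharacter N} (hχ : restrMult N χ θ ≠ 0) (hξ : restrMult N ξ θ ≠ 0) (n : N) :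
    (restrMult N ξ θ : ℂ) * χ.1 n = (restrMult N χ θ : ℂ) * ξ.1 n := by
  classical
  have key : ∀ η : Cfsg.IrrCharacter N,
      restrMult N ξ θ * restrMult N χ η = restrMult N χ θ * restrMult N ξ η := by
    intro η
    by_cases h : ∃ x : G, irrConj N x θ = η
    · obtain ⟨x, rfl⟩ := h
      rw [H43.restrMult_irrConj, H43.restrMult_irrConj, mul_comm]
    · have h1 : restrMult N χ η = 0 :=
        by_contra fun hne => h (H43.exists_irrConj_of_restrMult_ne_zero N χ hχ hne)
      have h2 : restrMult N ξ η = 0 :=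
        by_contra fun hne => h (H43.exists_irrConj_of_restrMult_ne_zero N ξ hξ hne)
      rw [h1, h2, mul_zero, mul_zero]
  have e1 := congrFun (H43.eq_sum_mult (H43.isCharacter_restr N χ)) n
  have e2 := congrFun (H43.eq_sum_mult (H43.isCharacter_restr N ξ)) n
  simp only [Finset.sum_apply, Pi.smul_apply, smul_eq_mul] at e1 e2
  rw [e1, e2, Finset.mul_sum, Finset.mul_sum]
  refine Finset.sum_congr rfl fun η _ => ?_
  rw [← mul_assoc, ← mul_assoc, ← Nat.cast_mul, ← Nat.cast_mul]
  exact congrArg (fun m : ℕ => (m : ℂ) * η.1 n) (key η)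

/-- The idempotent of a block is supported on the centralizer of a normal `p`-subgroup. -/
theorem blockCoeff_eq_zero_of_notMem_centralizer {p : ℕ} [Fact p.Prime] {M : Ideal Cfsg.AlgInt}
    (hM : Cfsg.IsPModular p M) {P : Subgroup G} [P.Normal] (hP : IsPGroup p P)
    {B : Set (Cfsg.IrrCharacter G)} (hB : Cfsg.IsPBlock M B) {g : G}
    (hg : g ∉ Subgroup.centralizer (P : Set G)) : Cfsg.blockCoeff B g = 0 := by
  classical
  have := hM.2.1
  have hCn : (Subgroup.centralizer (P : Set G)).Normal := inferInstance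
  set C := Subgroup.centralizer (P : Set G) with hC
  have : Fintype C := Fintype.ofFinite C
  set c : Set (Cfsg.IrrCharacter C) := {θ | ∃ χ ∈ B, restrMult C χ θ ≠ 0} with hc
  have hst : ∀ x : G, ∀ θ ∈ c, irrConj C x θ ∈ c := by
    rintro x θ ⟨χ, hχ, hne⟩
    exact ⟨χ, hχ, by rwa [H43.restrMult_irrConj]⟩
  have hover : overSet C c = B := by
    ext ξ
    refine ⟨?_, fun hξ => ?_⟩
    · rintro ⟨θ, ⟨χ, hχ, hχθ⟩, hξθ⟩
      refine (H41.mem_iff_of_sameBlock hB (χ := χ) (ψ := ξ) fun y => ?_).1 hχ
      by_cases hy : y ∈ C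
      · have h : Cfsg.centralChar (χ : G → ℂ) y = Cfsg.centralChar (ξ : G → ℂ) y := by
          have e1 := restrMult_mul_apply hχθ hξθ (⟨y, hy⟩ : C)
          have e2 := restrMult_mul_apply hχθ hξθ (1 : C)
          simp only [OneMemClass.coe_one] at e1 e2
          simp only [Cfsg.centralChar]
          rw [div_eq_div_iff (H26.irr_one_ne_zero χ) (H26.irr_one_ne_zero ξ)]
          refine mul_left_cancel₀ (Nat.cast_ne_zero.2 hξθ : (restrMult C ξ θ : ℂ) ≠ 0) ?_
          linear_combination (((Subgroup.centralizer ({y} : Set G)).index : ℂ) * ξ.1 1) * e1 -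
            (((Subgroup.centralizer ({y} : Set G)).index : ℂ) * ξ.1 y) * e2
        rw [h, sub_self]
        exact H41.memLocalIdeal_iff_res.2 ⟨zero_mem _, map_zero _⟩
      · have hcls : ∀ x, IsConj y x → x ∉ C := by
          intro x hx hxC
          obtain ⟨u, hu⟩ := isConj_iff.1 hx
          refine hy ?_
          have := hCn.conj_mem x hxC u⁻¹
          rw [← hu] at this
          simpa [mul_assoc] using this
        obtain ⟨a1, b1⟩ := H41.memLocalIdeal_iff_res.1
          (H40.memLocalIdeal_centralChar_of_normal hM χ hP hcls)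
        obtain ⟨a2, b2⟩ := H41.memLocalIdeal_iff_res.1
          (H40.memLocalIdeal_centralChar_of_normal hM ξ hP hcls)
        refine H41.memLocalIdeal_iff_res.2 ⟨sub_mem a1 a2, ?_⟩
        rw [show (⟨_, sub_mem a1 a2⟩ : H41.localRing M) = ⟨_, a1⟩ - ⟨_, a2⟩ from rfl, map_sub, b1,
          b2, sub_zero]
    · obtain ⟨θ, hθ⟩ := H43.exists_restrMult_ne_zero C ξ
      exact ⟨θ, ⟨ξ, hξ, hθ⟩, hθ⟩
  rw [← hover, blockCoeff_overSet hst, Cfsg.subgroupBlockCoeff, dif_neg hg]

end Cfsg.Agent.H42

namespace Cfsg.Agent.H42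

/-- An element of order prime to `p` normalizing a `p`-group `P` and centralizing a self-centralizing
subgroup of it centralizes `P`. -/
theorem centralizes_of_centralizes_selfCentralizing {G : Type*} [Group G] [Finite G] {p : ℕ}
    [Fact p.Prime] {P : Subgroup G} (hP : IsPGroup p P) {g : G} (hg : ¬ p ∣ orderOf g)
    (hgP : ∀ x ∈ P, g * x * g⁻¹ ∈ P) :
    ∀ (k : ℕ) (U : Subgroup G), Nat.card P - Nat.card U ≤ k → U ≤ P →
      (∀ x ∈ P, (∀ u ∈ U, x * u = u * x) → x ∈ U) → (∀ u ∈ U, g * u = u * g) →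
      ∀ x ∈ P, g * x = x * g := by
  intro k
  induction k with
  | zero =>
    intro U hk hUP _ hgU x hx
    have : U = P := Subgroup.eq_of_le_of_card_ge hUP (by omega)
    exact hgU x (this ▸ hx)
  | succ k ih =>
    intro U hk hUP hsc hgU
    by_cases hUe : U = P
    · exact fun x hx => hgU x (hUe ▸ hx)
    set U' := Subgroup.normalizer (U : Set G) ⊓ P with hU'
    have hle : U ≤ U' := le_inf Subgroup.le_normalizer hUP
    have hne : U ≠ U' := by
      intro h
      have : Group.IsNilpotent P := hP.isNilpotent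
      have hlt : U.subgroupOf P < ⊤ := lt_top_iff_ne_top.2 fun ht =>
        hUe (le_antisymm hUP (Subgroup.subgroupOf_eq_top.1 ht))
      refine (Group.normalizerCondition_of_isNilpotent (G := P) _ hlt).ne (le_antisymm
        Subgroup.le_normalizer fun x hx => ?_)
      rw [Subgroup.mem_subgroupOf]
      have hxn : (x : G) ∈ Subgroup.normalizer (U : Set G) := by
        rw [Subgroup.mem_normalizer_iff]
        intro u
        refine ⟨fun hu => ?_, fun hu => ?_⟩
        · have := (Subgroup.mem_normalizer_iff.1 hx ⟨u, hUP hu⟩).1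
            (Subgroup.mem_subgroupOf.2 hu)
          simpa [Subgroup.mem_subgroupOf] using this
        · have huP : u ∈ P := by
            have := P.mul_mem (P.mul_mem (P.inv_mem x.2) (hUP hu)) x.2
            simpa [mul_assoc] using this
          have := (Subgroup.mem_normalizer_iff.1 hx ⟨u, huP⟩).2
            (Subgroup.mem_subgroupOf.2 (by simpa using hu))
          simpa [Subgroup.mem_subgroupOf] using this
      rw [h]
      exact ⟨hxn, x.2⟩
    have hgU' : ∀ x ∈ U', g * x = x * g := by
      intro x hx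
      obtain ⟨hxN, hxP⟩ := Subgroup.mem_inf.1 hx
      set c := x⁻¹ * (g * x * g⁻¹) with hc
      have hcP : c ∈ P := P.mul_mem (P.inv_mem hxP) (hgP x hxP)
      have hcU : c ∈ U := by
        refine hsc c hcP fun u hu => ?_
        have h1 : x * u * x⁻¹ ∈ U := (Subgroup.mem_normalizer_iff.1 hxN u).1 hu
        have e1 : g⁻¹ * u * g = u := by rw [mul_assoc, ← hgU u hu, inv_mul_cancel_left]
        have e2 : g * (x * u * x⁻¹) * g⁻¹ = x * u * x⁻¹ := by
          rw [hgU _ h1, mul_inv_cancel_right]
        have e3 : (g * x * g⁻¹) * u * (g * x * g⁻¹)⁻¹ = x * u * x⁻¹ := by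
          rw [← e2, show g * x * g⁻¹ * u * (g * x * g⁻¹)⁻¹ = g * (x * (g⁻¹ * u * g) * x⁻¹) * g⁻¹ by
            group, e1]
        calc c * u = x⁻¹ * ((g * x * g⁻¹) * u * (g * x * g⁻¹)⁻¹) * (g * x * g⁻¹) := by
              rw [hc]; group
          _ = u * c := by rw [e3, hc]; group
      have hgc := hgU c hcU
      have hxc : g * x * g⁻¹ = x * c := by rw [hc, mul_inv_cancel_left]
      have hpow : ∀ i : ℕ, g ^ i * x * (g ^ i)⁻¹ = x * c ^ i := by
        intro i
        induction i with
        | zero => simp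
        | succ i ihi =>
          rw [pow_succ' g, show g * g ^ i * x * (g * g ^ i)⁻¹ = g * (g ^ i * x * (g ^ i)⁻¹) * g⁻¹ by
            group, ihi, show g * (x * c ^ i) * g⁻¹ = (g * x * g⁻¹) * (g * c ^ i * g⁻¹) by group,
            hxc, ((show Commute g c from hgc).pow_right i).eq, mul_inv_cancel_right, mul_assoc,
            ← pow_succ']
      have h1 := hpow (orderOf g)
      rw [pow_orderOf_eq_one, one_mul, inv_one, mul_one, left_eq_mul] at h1
      obtain ⟨j, hj⟩ := IsPGroup.iff_orderOf.1 hP ⟨c, hcP⟩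
      rw [Subgroup.orderOf_mk] at hj
      have hc1 : c = 1 := orderOf_eq_one_iff.1 <| Nat.eq_one_of_dvd_coprimes
        (Nat.Coprime.pow_left j ((Nat.Prime.coprime_iff_not_dvd Fact.out).2 hg))
        (dvd_of_eq hj) (orderOf_dvd_of_pow_eq_one h1)
      rw [hc1, mul_one] at hxc
      exact mul_inv_eq_iff_eq_mul.1 hxc
    have hlt : Nat.card U < Nat.card U' := by
      rcases Nat.lt_or_ge (Nat.card U) (Nat.card U') with h | h
      · exact h
      · exact absurd (Subgroup.eq_of_le_of_card_ge hle h) hne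
    have hle' : Nat.card U' ≤ Nat.card P := Subgroup.card_le_of_le inf_le_right
    exact ih U' (by omega) inf_le_right
      (fun x hx h => hle (hsc x hx fun u hu => h u (hle hu))) hgU'

end Cfsg.Agent.H42
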