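import Mathlib.GroupTheory.FiniteAbelian.Duality
import Cfsg.Agent.H41.DefectLocal
import Cfsg.Agent.H42.Central
import Cfsg.Agent.H42.DegreeBound
import Cfsg.Agent.H40.BlockDefect
import Cfsg.Agent.H40.Residue
import Cfsg.Agent.H26.CharOrtho

/-!
# Counting the blocks when the only defects are zero and the full one

If `Z(G)` has order prime to `p`, every block has defect zero or full defect, and every `p`-regular
element centralising a Sylow `p`-subgroup is central, then the blocks of positive defect
correspond to the characters of the centre.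
-/

set_option autoImplicit false

open scoped ComplexConjugate

namespace Cfsg.Agent.H42

open Cfsg

universe u

variable {G : Type u} [Group G] [Fintype G] {p : ℕ} [Fact p.Prime] {M : Ideal AlgInt}

/-- Some character of positive defect lies over each character of a central subgroup. -/
theorem exists_over_central_not_defect_zero (hp : p ∣ Nat.card G) (Z : Subgroup G)
    (hZ : Z ≤ Subgroup.center G) (μ : Z →* ℂˣ) :
    ∃ χ : IrrCharacter G, centralHom χ Z hZ = μ ∧
      (Cfsg.charDegree (χ : G → ℂ)).factorization p < (Nat.card G).factorization p := by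
  classical
  by_contra hno
  push Not at hno
  have := Fintype.ofFinite Z
  set a := (Nat.card G).factorization p
  set S := Finset.univ.filter fun χ : IrrCharacter G => centralHom χ Z hZ = μ
  have hsum : (Nat.card Z : ℂ) * ∑ χ ∈ S, ((Cfsg.charDegree (χ : G → ℂ) : ℂ)) ^ 2 =
      (Nat.card G : ℂ) := by
    have h1 : ∀ χ : IrrCharacter G, ∑ z : Z, (((centralHom χ Z hZ) * μ⁻¹) z : ℂˣ).1 =
        if centralHom χ Z hZ = μ then (Fintype.card Z : ℂ) else 0 := by
      intro χ
      have h := sum_hom_units ((Units.coeHom ℂ).comp ((centralHom χ Z hZ) * μ⁻¹))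
      refine h.trans ?_
      by_cases e : centralHom χ Z hZ = μ
      · rw [if_pos e, if_pos]
        ext z
        simp [e]
      · rw [if_neg e, if_neg, Nat.cast_zero]
        intro h'
        refine e (MonoidHom.ext fun z => Units.ext ?_)
        have := DFunLike.congr_fun h' z
        simpa [mul_inv_eq_one₀] using this
    calc (Nat.card Z : ℂ) * ∑ χ ∈ S, ((Cfsg.charDegree (χ : G → ℂ) : ℂ)) ^ 2
        = ∑ χ : IrrCharacter G, ((χ : G → ℂ) 1) ^ 2 *
            ∑ z : Z, (((centralHom χ Z hZ) * μ⁻¹) z : ℂˣ).1 := by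
          rw [Finset.mul_sum, Finset.sum_filter]
          refine Fintype.sum_congr _ _ fun χ => ?_
          rw [h1, ← irr_one_eq, Nat.card_eq_fintype_card]
          split_ifs <;> ring
      _ = ∑ z : Z, ((μ⁻¹ z : ℂˣ) : ℂ) * ∑ χ : IrrCharacter G, (χ : G → ℂ) z * conj ((χ : G → ℂ) 1) := by
          simp only [Finset.mul_sum]
          rw [Finset.sum_comm]
          refine Fintype.sum_congr _ _ fun z => Fintype.sum_congr _ _ fun χ => ?_
          rw [MonoidHom.mul_apply, Units.val_mul, centralHom_apply, irr_one_eq, Complex.conj_natCast]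
          have : (Cfsg.charDegree (χ : G → ℂ) : ℂ) ≠ 0 := by
            rw [← irr_one_eq]; exact H26.irr_one_ne_zero χ
          field_simp
      _ = (Nat.card G : ℂ) := by
          rw [Fintype.sum_eq_single (1 : Z) fun z hz => ?_]
          · have hc : Subgroup.centralizer ({(1 : G)} : Set G) = ⊤ := by
              ext x; simp [Subgroup.mem_centralizer_singleton_iff]
            rw [H26.column_orthogonality, hc, Subgroup.card_top, OneMemClass.coe_one,
              H26.classIndicator, if_pos (IsConj.refl _), map_one, Units.val_one, one_mul, mul_one]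
          · rw [H26.column_orthogonality, H26.classIndicator, if_neg, mul_zero, mul_zero]
            intro h
            obtain ⟨c, hc⟩ := isConj_iff.1 h.symm
            exact hz (Subtype.ext (by simpa using hc.symm))
  obtain ⟨m, hm⟩ : p ^ (2 * a) ∣ ∑ χ ∈ S, Cfsg.charDegree (χ : G → ℂ) ^ 2 := by
    refine Finset.dvd_sum fun χ hχ => ?_
    rw [mul_comm, pow_mul]
    exact pow_dvd_pow_of_dvd
      ((pow_dvd_pow p (hno χ (Finset.mem_filter.1 hχ).2)).trans (Nat.ordProj_dvd _ p)) 2
  have hnat : Nat.card Z * ∑ χ ∈ S, Cfsg.charDegree (χ : G → ℂ) ^ 2 = Nat.card G := by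
    have : ((Nat.card Z * ∑ χ ∈ S, Cfsg.charDegree (χ : G → ℂ) ^ 2 : ℕ) : ℂ) = (Nat.card G : ℂ) := by
      push_cast
      exact hsum
    exact_mod_cast this
  have ha : 1 ≤ a := (Fact.out : p.Prime).factorization_pos_of_dvd Nat.card_pos.ne' hp
  have hd : p ^ (2 * a) ∣ Nat.card G := by rw [← hnat, hm]; exact ⟨Nat.card Z * m, by ring⟩
  have := ((Fact.out : p.Prime).pow_dvd_iff_le_factorization Nat.card_pos.ne').1 hd
  omega

/-- Characters in one block agree on a central `p'`-subgroup. -/
theorem centralHom_eq_of_sameBlock (hM : IsPModular p M) (Z : Subgroup G)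
    (hZ : Z ≤ Subgroup.center G) (hZp : ¬ p ∣ Nat.card Z) {χ ψ : IrrCharacter G}
    (h : SameBlock M (χ : G → ℂ) (ψ : G → ℂ)) : centralHom χ Z hZ = centralHom ψ Z hZ := by
  classical
  have := hM.2.1
  have := Fintype.ofFinite Z
  by_contra hne
  set ν := centralHom χ Z hZ * (centralHom ψ Z hZ)⁻¹
  have hν : ν ≠ 1 := fun e => hne (mul_inv_eq_one.1 e)
  have hone : ∀ (φ : IrrCharacter G) (z : Z),
      Cfsg.centralChar (φ : G → ℂ) (z : G) = ((centralHom φ Z hZ z : ℂˣ) : ℂ) := by
    intro φ z
    have hc : (Subgroup.centralizer ({(z : G)} : Set G)).index = 1 := by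
      rw [Subgroup.index_eq_one, eq_top_iff]
      intro g _
      exact Subgroup.mem_centralizer_singleton_iff.2 (Subgroup.mem_center_iff.1 (hZ z.2) g)
    rw [Cfsg.centralChar, hc, centralHom_apply, Nat.cast_one, one_mul]
  have hroot : ∀ (φ : IrrCharacter G) (z : Z),
      ((centralHom φ Z hZ z : ℂˣ) : ℂ) ∈ H41.localRing M := fun φ z =>
    H41.isIntegral_mem_localRing (IsIntegral.of_pow (orderOf_pos z) (by
      rw [← Units.val_pow_eq_pow_val, ← map_pow, pow_orderOf_eq_one, map_one, Units.val_one]
      exact isIntegral_one))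
  have h1 : ∀ z : Z, Cfsg.MemLocalIdeal M (((ν z : ℂˣ) : ℂ) - 1) := by
    intro z
    have h2 := h (z : G)
    rw [hone, hone] at h2
    have h3 := H40.memLocalIdeal_mul_left (hroot ψ z⁻¹) h2
    convert h3 using 1
    simp only [ν, MonoidHom.mul_apply, MonoidHom.inv_apply, Units.val_mul, map_inv]
    rw [mul_sub, Units.inv_mul, mul_comm]
  have h2 := H40.memLocalIdeal_sum (M := M) Finset.univ _ fun z _ => h1 z
  have h3 : ∑ z : Z, ((ν z : ℂˣ) : ℂ) = 0 :=
    sum_hom_units_eq_zero ((Units.coeHom ℂ).comp ν)
      (fun e => hν (MonoidHom.ext fun z => Units.ext (DFunLike.congr_fun e z)))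
  rw [Finset.sum_sub_distrib, h3, zero_sub, Finset.sum_const, Finset.card_univ, nsmul_one] at h2
  refine hZp (H40.dvd_of_memLocalIdeal_natCast hM ?_)
  have h4 := H40.memLocalIdeal_mul_left (neg_mem (one_mem (H41.localRing M))) h2
  rw [Nat.card_eq_fintype_card]
  simpa using h4

/-- **The number of blocks of positive defect.** -/
theorem card_blocks_pos_defect (hM : IsPModular p M) (hp : p ∣ Nat.card G)
    (hZp : ¬ p ∣ Nat.card (Subgroup.center G))
    (hdich : ∀ B : Set (IrrCharacter G), IsPBlock M B →
      blockDefect p B = 0 ∨ blockDefect p B = (Nat.card G).factorization p)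
    (hcen : ∀ g : G, ¬ p ∣ orderOf g →
      (Nat.card G).factorization p ≤ (Nat.card (Subgroup.centralizer ({g} : Set G))).factorization p →
      g ∈ Subgroup.center G) :
    Nat.card {B : Set (IrrCharacter G) // IsPBlock M B ∧ blockDefect p B ≠ 0} =
      Nat.card (Subgroup.center G) := by
  classical
  have := hM.2.1
  have : Finite (ConjClasses G) := Quotient.finite _
  set a := (Nat.card G).factorization p
  have ha : a ≠ 0 := ((Fact.out : p.Prime).factorization_pos_of_dvd Nat.card_pos.ne' hp).ne'
  refine le_antisymm ?_ ?_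
  · calc Nat.card {B : Set (IrrCharacter G) // IsPBlock M B ∧ blockDefect p B ≠ 0}
        = Nat.card {B : Set (IrrCharacter G) // IsPBlock M B ∧ a ≤ blockDefect p B} := by
          refine Nat.card_congr (Equiv.subtypeEquivRight fun B => ⟨fun h => ⟨h.1, ?_⟩, fun h => ⟨h.1, ?_⟩⟩)
          · exact ((hdich B h.1).resolve_left h.2).ge
          · have := h.2; omega
      _ ≤ _ := (H41.card_blocks_le hM a).trans ?_
    refine Nat.card_le_card_of_surjective
      (fun z : Subgroup.center G => (⟨ConjClasses.mk (z : G), z, rfl, ?_, ?_⟩ :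
        {C : ConjClasses G // ∃ g : G, ConjClasses.mk g = C ∧ IsPRegular p g ∧
          a ≤ (Nat.card (Subgroup.centralizer ({g} : Set G))).factorization p})) ?_
    · intro h
      exact hZp (h.trans ((Subgroup.orderOf_coe z).symm ▸ orderOf_dvd_natCard z))
    · have hc : Subgroup.centralizer ({(z : G)} : Set G) = ⊤ := by
        refine eq_top_iff.2 fun g _ => ?_
        exact Subgroup.mem_centralizer_singleton_iff.2 (Subgroup.mem_center_iff.1 z.2 g)
      rw [hc, Subgroup.card_top]
    · rintro ⟨C, g, rfl, hreg, hg⟩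
      exact ⟨⟨g, hcen g hreg hg⟩, rfl⟩
  · have hchoose : ∀ B : {B : Set (IrrCharacter G) // IsPBlock M B ∧ blockDefect p B ≠ 0},
        ∃ χ : IrrCharacter G, χ ∈ B.1 := fun B => H41.IsPBlock.nonempty B.2.1
    choose χ hχ using hchoose
    let _ : CommGroup (Subgroup.center G) := { (inferInstance : Group (Subgroup.center G)) with
      mul_comm := fun a b => Subtype.ext (Subgroup.mem_center_iff.1 b.2 a) }
    rw [← CommGroup.card_monoidHom_of_hasEnoughRootsOfUnity ↥(Subgroup.center G) ℂ]
    refine Nat.card_le_card_of_surjective (fun B => centralHom (χ B) (Subgroup.center G) le_rfl) fun μ => ?_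
    obtain ⟨φ, hφ, hdeg⟩ := exists_over_central_not_defect_zero hp (Subgroup.center G) le_rfl μ
    have hB := H41.isPBlock_blockOf (M := M) φ
    have hpos : blockDefect p (Cfsg.blockOf M (φ : G → ℂ)) ≠ 0 := by
      intro h0
      have := H40.sub_blockDefect_le hM hB (H41.mem_blockOf_self φ)
      omega
    refine ⟨⟨_, hB, hpos⟩, ?_⟩
    rw [← hφ]
    exact centralHom_eq_of_sameBlock hM (Subgroup.center G) le_rfl hZp
      (H41.sameBlock_of_mem hB (hχ ⟨_, hB, hpos⟩) (H41.mem_blockOf_self φ))

end Cfsg.Agent.H42
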