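import Cfsg.Agent.H43.DetChar
import Cfsg.Agent.H43.CharTools
import Cfsg.Agent.H40.BlockDefect
import Cfsg.Agent.H41.Blocks

/-!
# Small faithful degrees in the principal block

On an element of order prime to `p` centralising a Sylow subgroup, a principal character is
congruent to its degree, so the nontrivial eigenvalues have multiplicities divisible by `p`.
-/

set_option autoImplicit false
set_option maxHeartbeats 400000

open scoped ComplexConjugate

namespace Cfsg.Agent.H42

variable {V : Type*} [Group V] [Fintype V]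

/-- The determinant in terms of the linear constituents. -/
theorem det_eq_prod_pow {n : ℕ} (σ : Representation ℂ V (Fin n → ℂ))
    (lin : Cfsg.IrrCharacter V → (V →* ℂˣ)) (hlin : ∀ μ, (fun x => (lin μ x : ℂ)) = μ.1) (x : V) :
    (H43.detHom σ x : ℂ) = ∏ μ : Cfsg.IrrCharacter V,
      (lin μ x : ℂ) ^ H43.mult σ.character μ := by
  classical
  let ι := Σ μ : Cfsg.IrrCharacter V, Fin (H43.mult σ.character μ)
  let D : V → Matrix ι ι ℂ := fun y => Matrix.diagonal fun i : ι => (lin i.1 y : ℂ)
  let τ : Representation ℂ V (ι → ℂ) :=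
    { toFun := fun y => Matrix.toLin' (D y)
      map_one' := by
        show Matrix.toLin' (D 1) = 1
        simp [D]
        rfl
      map_mul' := fun a b => by
        show Matrix.toLin' (D (a * b)) = Matrix.toLin' (D a) * Matrix.toLin' (D b)
        rw [Module.End.mul_eq_comp, ← Matrix.toLin'_mul, Matrix.diagonal_mul_diagonal]
        simp [D] }
  have hchar : τ.character = σ.character := funext fun y => by
    show LinearMap.trace ℂ (ι → ℂ) (Matrix.toLin' (D y)) = _
    rw [Matrix.trace_toLin'_eq]
    simp only [D, Matrix.trace_diagonal]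
    rw [Fintype.sum_sigma, congrFun (H43.eq_sum_mult (H26.isCharacter_char σ)) y, Finset.sum_apply]
    refine Finset.sum_congr rfl fun μ _ => ?_
    dsimp only
    rw [Finset.sum_const, Finset.card_univ, Fintype.card_fin, nsmul_eq_mul, Pi.smul_apply,
      smul_eq_mul, ← congrFun (hlin μ) y]
  have h : (H43.detHom σ x : ℂ) = (H43.detHom τ x : ℂ) := by
    have h1 := congrFun (H43.detChar_eq σ) x
    rw [← hchar] at h1
    exact h1.symm.trans (congrFun (H43.detChar_eq τ) x)
  rw [h, H43.detHom_coe]
  show LinearMap.det (Matrix.toLin' (D x)) = _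
  rw [LinearMap.det_toLin', Matrix.det_diagonal, Fintype.prod_sigma]
  exact Finset.prod_congr rfl fun μ _ => by
    dsimp only
    rw [Finset.prod_const, Finset.card_univ, Fintype.card_fin]

variable {G : Type*} [Group G] [Fintype G] {p : ℕ} [hp : Fact p.Prime] {M : Ideal Cfsg.AlgInt}

/-- A principal character is congruent to its degree where a Sylow subgroup centralises. -/
theorem res_value_eq_degree [M.IsMaximal] (hM : Cfsg.IsPModular p M) (P : Sylow p G) {χ : Cfsg.IrrCharacter G}
    (hχ : χ ∈ Cfsg.principalBlock M G) {x : G}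
    (hx : ∀ y ∈ (P : Subgroup G), y * x = x * y) :
    H41.res M ⟨χ.1 x, H40.irr_mem_localRing χ x⟩ =
      (Cfsg.charDegree χ.1 : H41.ResField M) := by
  set L := H41.localRing M
  set c := (Subgroup.centralizer ({x} : Set G)).index
  have hc : ¬ p ∣ c := fun h => P.not_dvd_index (h.trans (Subgroup.index_dvd_of_le fun y hy =>
    Subgroup.mem_centralizer_singleton_iff.2 (hx y hy)))
  have hc0 : (c : ℂ) ≠ 0 := Nat.cast_ne_zero.2 fun h => hc (h ▸ dvd_zero p)
  let ci : L := ⟨_, H41.IsPModular.inv_natCast_mem hM hc⟩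
  let w : L := H41.omegaLoc M χ (H41.classSumZ L x)
  have hw : (w : ℂ) = Cfsg.centralChar χ.1 x := H41.coe_omegaLoc_classSumZ _ _ _
  have h1 : Cfsg.MemLocalIdeal M (((c : L) : ℂ) - (w : ℂ)) := by
    have h := hχ x
    rw [hw]
    rw [Cfsg.centralChar, div_one, mul_one] at h
    push_cast
    exact h
  have h2 : H41.res M ((c : L) - w) = 0 := by
    rw [← H41.memLocalIdeal_coe_iff]
    push_cast
    exact h1
  have h3 : (⟨χ.1 x, H40.irr_mem_localRing χ x⟩ : L) =
      (Cfsg.charDegree χ.1 : L) - (Cfsg.charDegree χ.1 : L) * ci * ((c : L) - w) := by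
    refine Subtype.ext ?_
    push_cast
    rw [hw, Cfsg.centralChar, H43.irr_charDegree_spec]
    have hd : (Cfsg.charDegree χ.1 : ℂ) ≠ 0 := Nat.cast_ne_zero.2 (H43.irr_charDegree_pos χ).ne'
    simp only [ci]
    field_simp
    ring
  rw [h3, map_sub, map_mul _ _ ((c : L) - w), h2, mul_zero, sub_zero, map_natCast]

/-- A faithful principal character of degree below `2p` of a perfect group: no element of order
prime to `p` centralises a Sylow subgroup. -/
theorem eq_one_of_small_principal (hM : Cfsg.IsPModular p M) (hperf : commutator G = ⊤)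
    (P : Sylow p G) {χ : Cfsg.IrrCharacter G} (hχ : χ ∈ Cfsg.principalBlock M G)
    (hfaith : ∀ g : G, χ.1 g = χ.1 1 → g = 1) (hdeg : Cfsg.charDegree χ.1 < 2 * p) {v : G}
    (hv : ¬ p ∣ orderOf v) (hvP : ∀ y ∈ (P : Subgroup G), y * v = v * y) : v = 1 := by
  classical
  have := hM.2.1
  set W := Subgroup.zpowers v
  have : Fintype W := Fintype.ofFinite _
  have hcomm : ∀ a b : W, a * b = b * a := fun a b => mul_comm' a b
  have hlin : ∀ μ : Cfsg.IrrCharacter W, ∃ f : W →* ℂˣ, (fun x => (f x : ℂ)) = μ.1 := fun μ => by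
    obtain ⟨f, hf⟩ := H26.exists_hom_of_isCharacter_one (H26.irr_isCharacter μ)
      (H26.irr_one_eq_one_of_comm hcomm μ)
    exact ⟨f, funext hf⟩
  choose lin hlin using hlin
  have hch : Cfsg.IsCharacter W (fun x : W => χ.1 (x : G)) :=
    H26.isCharacter_comp (H26.irr_isCharacter χ) W.subtype
  set m := fun μ : Cfsg.IrrCharacter W => H43.mult (fun x : W => χ.1 (x : G)) μ
  have hWP : ∀ x : W, ∀ y ∈ (P : Subgroup G), y * (x : G) = (x : G) * y := fun x y hy => by
    obtain ⟨i, hi⟩ := Subgroup.mem_zpowers_iff.1 x.2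
    rw [← hi]
    exact ((Commute.zpow_right (hvP y hy) i : Commute y (v ^ i))).eq
  have hsum : Cfsg.charDegree χ.1 = ∑ μ : Cfsg.IrrCharacter W, m μ := by
    have h := H43.apply_one_eq_sum_mult hch
    rw [Subgroup.coe_one, H43.irr_charDegree_spec] at h
    have hd : ∀ μ : Cfsg.IrrCharacter W, Cfsg.charDegree μ.1 = 1 := fun μ => by
      have := H43.irr_charDegree_spec μ
      rw [H26.irr_one_eq_one_of_comm hcomm μ] at this
      exact_mod_cast this.symm
    simp only [hd, Nat.cast_one, mul_one] at h
    exact_mod_cast h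
  have hW : ¬ p ∣ Nat.card W := by rwa [Nat.card_zpowers]
  have hdvd : ∀ μ : Cfsg.IrrCharacter W, μ ≠ H26.oneIrr W → p ∣ m μ := by
    intro μ hμ
    let L := H41.localRing M
    let a : W → L := fun x => ⟨χ.1 x, H40.irr_mem_localRing χ x⟩
    let l : W → L := fun x => ⟨μ.1 x⁻¹, H40.irr_mem_localRing μ x⁻¹⟩
    have h1 : ((Nat.card W * m μ : ℕ) : L) = ∑ x : W, a x * l x := by
      refine Subtype.ext ?_
      push_cast
      simp only [a, l, H26.irr_inv]
      have h := H43.classInner_eq_mult hch μ
      rw [Cfsg.classInner, inv_mul_eq_iff_eq_mul₀ (Nat.cast_ne_zero.2 Nat.card_pos.ne')] at h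
      exact h.symm
    have h2 : ∑ x : W, l x = 0 := by
      refine Subtype.ext ?_
      push_cast
      simp only [l, H26.irr_inv]
      have h := H43.sum_mul_conj (H26.oneIrr W) μ
      simp only [H26.oneIrr_val, one_mul, if_neg (Ne.symm hμ)] at h
      exact h
    have h3 : ((Nat.card W * m μ : ℕ) : H41.ResField M) = 0 := by
      rw [← map_natCast (H41.res M), h1, map_sum]
      simp only [map_mul, a, res_value_eq_degree hM P hχ (hWP _)]
      rw [← Finset.mul_sum, ← map_sum, h2, map_zero, mul_zero]
    exact (hp.out.dvd_mul.1 ((H41.IsPModular.natCast_eq_zero_iff hM _).1 h3)).resolve_left hW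
  -- every constituent is trivial
  have hzero : ∀ μ : Cfsg.IrrCharacter W, μ ≠ H26.oneIrr W → m μ = 0 := by
    intro μ hμ
    by_contra h0
    have hge : p ≤ m μ := Nat.le_of_dvd (Nat.pos_of_ne_zero h0) (hdvd μ hμ)
    have hmμ : m μ = p := by
      have h1 : m μ ≤ Cfsg.charDegree χ.1 :=
        hsum ▸ Finset.single_le_sum (fun _ _ => Nat.zero_le _) (Finset.mem_univ μ)
      obtain ⟨c, hc⟩ := hdvd μ hμ
      have : c = 1 := by
        have h2 : p * c < 2 * p := by omega
        have h3 : c ≠ 0 := fun h => h0 (by rw [hc, h, mul_zero])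
        have : c < 2 := by nlinarith
        omega
      rw [hc, this, mul_one]
    have hother : ∀ η : Cfsg.IrrCharacter W, η ≠ μ → η ≠ H26.oneIrr W → m η = 0 := by
      intro η hη hη1
      by_contra hn
      have h1 : p ≤ m η := Nat.le_of_dvd (Nat.pos_of_ne_zero hn) (hdvd η hη1)
      have h2 : m μ + m η ≤ Cfsg.charDegree χ.1 := by
        rw [hsum, ← Finset.sum_pair hη.symm]
        exact Finset.sum_le_sum_of_subset (Finset.subset_univ _)
      omega
    -- the determinant
    obtain ⟨n, ρ, -, hρ⟩ := χ.2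
    let σ : Representation ℂ W (Fin n → ℂ) := ρ.comp W.subtype
    have hσ : σ.character = fun x : W => χ.1 (x : G) := by rw [← hρ]; rfl
    set vW : W := ⟨v, Subgroup.mem_zpowers v⟩
    have hdet : H43.detHom σ vW = 1 := by
      show H43.detHom ρ v = 1
      have hle : commutator G ≤ (H43.detHom ρ).ker := Abelianization.commutator_subset_ker _
      exact hle (hperf ▸ Subgroup.mem_top v)
    have hprod := det_eq_prod_pow σ lin hlin vW
    rw [hdet, Units.val_one, Finset.prod_eq_single μ (fun η _ hη => ?_)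
      (fun h => absurd (Finset.mem_univ _) h), hσ, show H43.mult _ μ = p from hmμ] at hprod
    · have hu : lin μ vW ^ p = 1 := Units.ext (by push_cast; exact hprod.symm)
      have h1 : lin μ vW = 1 := by
        rw [← orderOf_eq_one_iff]
        exact Nat.eq_one_of_dvd_coprimes ((Nat.Prime.coprime_iff_not_dvd hp.out).2 hW)
          (orderOf_dvd_of_pow_eq_one hu) ((orderOf_map_dvd (lin μ) vW).trans (orderOf_dvd_natCard _))
      refine hμ (Subtype.ext (funext fun x => ?_))
      rw [← congrFun (hlin μ) x, H26.oneIrr_val]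
      obtain ⟨i, hi⟩ := Subgroup.mem_zpowers_iff.1 x.2
      rw [show x = vW ^ i from Subtype.ext (by push_cast; exact hi.symm), map_zpow, h1, one_zpow,
        Units.val_one]
    · rw [hσ]
      by_cases h : η = H26.oneIrr W
      · rw [show (lin η vW : ℂ) = 1 by rw [congrFun (hlin η) vW, h, H26.oneIrr_val], one_pow]
      · rw [show H43.mult _ η = 0 from hother η hη h, pow_zero]
  refine hfaith v ?_
  have hexp := H43.eq_sum_mult hch
  have hall : ∀ x : W, χ.1 (x : G) = (m (H26.oneIrr W) : ℂ) := fun x => by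
    have h := congrFun hexp x
    rw [Finset.sum_apply, Finset.sum_eq_single (H26.oneIrr W) (fun η _ hη => by
      rw [show H43.mult _ η = 0 from hzero η hη, Nat.cast_zero, zero_smul, Pi.zero_apply])
      (fun h => absurd (Finset.mem_univ _) h), Pi.smul_apply, H26.oneIrr_val, smul_eq_mul,
      mul_one] at h
    exact h
  have h1 := hall 1
  rw [Subgroup.coe_one] at h1
  rw [h1]
  exact hall ⟨v, Subgroup.mem_zpowers v⟩

end Cfsg.Agent.H42
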